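import Mathlib

/-!
# Hall–Higman Theorem B: shared definitions for the reduction (helper53)
-/

set_option autoImplicit false

namespace Cfsg.Agent.Lib.Helper53.HH

variable {K : Type*} [Field K] {U : Type*} [AddCommGroup U] [Module K U]

/-- `W` is a nonzero `𝒬`-invariant subspace, minimal with these properties. -/
def Irr (𝒬 : Subgroup (U ≃ₗ[K] U)) (W : Submodule K U) : Prop :=
  W ≠ ⊥ ∧ (∀ g ∈ 𝒬, ∀ u ∈ W, g u ∈ W) ∧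
    ∀ W' : Submodule K U, W' ≤ W → (∀ g ∈ 𝒬, ∀ u ∈ W', g u ∈ W') → W' = ⊥ ∨ W' = W

/-- some linear map is `𝒬`-equivariant on `A`, maps `A` into `B`, and is nonzero on `A`. -/
def QIso (𝒬 : Subgroup (U ≃ₗ[K] U)) (A B : Submodule K U) : Prop :=
  ∃ f : U →ₗ[K] U, (∀ u ∈ A, f u ∈ B) ∧ (∀ g ∈ 𝒬, ∀ u ∈ A, f (g u) = g (f u)) ∧ ∃ u ∈ A, f u ≠ 0

/-- the conclusion of Theorem B for an element of order `p ^ n` with `(x - 1) ^ r = 0`. -/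
def Concl (p q n : ℕ) (nonab : Prop) (r : ℕ) : Prop :=
  p ^ n ≤ r ∨ ∃ n₀ m : ℕ, 1 ≤ n₀ ∧ n₀ ≤ n ∧ 1 ≤ m ∧ p ^ n₀ - 1 = q ^ m ∧ nonab ∧
    p ^ (n - n₀) * (p ^ n₀ - 1) ≤ r

end Cfsg.Agent.Lib.Helper53.HH
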