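import Mathlib
import Cfsg.Agent.Lib.Helper53.HH.Defs

/-!
# Restriction of linear groups to invariant subspaces (helper53)
-/

set_option autoImplicit false

namespace Cfsg.Agent.Lib.Helper53.HH

open Module

variable {K : Type*} [Field K] {U : Type*} [AddCommGroup U] [Module K U]

/-- stabilizer of a subspace in `GL(U)` -/
def stab (W : Submodule K U) : Subgroup (U ≃ₗ[K] U) where
  carrier := {g | W.map g.toLinearMap = W}
  one_mem' := by
    show W.map (1 : U ≃ₗ[K] U).toLinearMap = W
    have : (1 : U ≃ₗ[K] U).toLinearMap = LinearMap.id := rfl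
    rw [this, Submodule.map_id]
  mul_mem' := by
    intro a b ha hb
    show W.map (a * b).toLinearMap = W
    have : (a * b).toLinearMap = a.toLinearMap ∘ₗ b.toLinearMap := rfl
    rw [this, Submodule.map_comp, hb, ha]
  inv_mem' := by
    intro a ha
    show W.map (a⁻¹).toLinearMap = W
    have h1 : (a⁻¹).toLinearMap ∘ₗ a.toLinearMap = LinearMap.id := by
      ext u
      show a⁻¹ (a u) = u
      exact a.symm_apply_apply u
    calc W.map (a⁻¹).toLinearMap = (W.map a.toLinearMap).map (a⁻¹).toLinearMap := by
          rw [show W.map a.toLinearMap = W from ha]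
      _ = W := by rw [← Submodule.map_comp, h1, Submodule.map_id]

theorem mem_stab_iff (W : Submodule K U) (g : U ≃ₗ[K] U) :
    g ∈ stab W ↔ W.map g.toLinearMap = W := Iff.rfl

theorem mem_stab_of_forall [FiniteDimensional K U] (W : Submodule K U) (g : U ≃ₗ[K] U)
    (h : ∀ u ∈ W, g u ∈ W) : g ∈ stab W := by
  rw [mem_stab_iff]
  apply Submodule.eq_of_le_of_finrank_eq
  · rintro _ ⟨u, hu, rfl⟩
    exact h u hu
  · exact LinearEquiv.finrank_map_eq g W

theorem apply_mem_of_mem_stab {W : Submodule K U} {g : U ≃ₗ[K] U} (hg : g ∈ stab W) {u : U}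
    (hu : u ∈ W) : g u ∈ W := by
  have : g u ∈ W.map g.toLinearMap := ⟨u, hu, rfl⟩
  rwa [(mem_stab_iff W g).1 hg] at this

/-- restriction homomorphism -/
noncomputable def res (W : Submodule K U) : stab W →* (W ≃ₗ[K] W) where
  toFun g := LinearEquiv.ofSubmodules g.1 W W g.2
  map_one' := by
    ext u
    rfl
  map_mul' := by
    intro a b
    ext u
    rfl

@[simp] theorem res_apply (W : Submodule K U) (g : stab W) (u : W) :
    ((res W g u : W) : U) = g.1 u := rfl

/-- powers of `res g - 1` are restrictions of powers of `g - 1`. -/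
theorem res_sub_one_pow_apply (W : Submodule K U) (g : stab W) (k : ℕ) (u : W) :
    (((((res W g).toLinearMap - 1 : Module.End K W) ^ k) u : W) : U) =
      ((g.1.toLinearMap - 1 : Module.End K U) ^ k) (u : U) := by
  induction k generalizing u with
  | zero => simp
  | succ k ih =>
    rw [pow_succ, pow_succ, Module.End.mul_apply, Module.End.mul_apply, ih]
    congr 1

end Cfsg.Agent.Lib.Helper53.HH
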