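import Mathlib
import Cfsg.Agent.Lib.Helper53.HH.Res
import Cfsg.Agent.Lib.Helper82.HHR7
import Cfsg.Agent.Lib.Helper81.HHR1
import Cfsg.Agent.Lib.Helper81.HHR4
import Cfsg.Agent.Lib.Helper81.HHR5
import Cfsg.Agent.Lib.Helper81.HHR6

/-!
# Hall–Higman Theorem B over an algebraically closed field: the main induction (helper53)
-/

set_option autoImplicit false
set_option linter.unusedSectionVars false
set_option linter.style.haveILetI false

namespace Cfsg.Agent.Lib.Helper53.HH

open Module Cfsg.Agent.Lib.Helper81.HH Cfsg.Agent.Lib.Helper82.HH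

universe u v

theorem Concl.mono {p q n r : ℕ} {A B : Prop} (h : A → B) (hc : Concl p q n A r) :
    Concl p q n B r := by
  rcases hc with hc | ⟨n₀, m, h1, h2, h3, h4, h5, h6⟩
  · exact Or.inl hc
  · exact Or.inr ⟨n₀, m, h1, h2, h3, h4, h h5, h6⟩

theorem comm_iff {G : Type*} [Group G] (Q : Subgroup G) :
    IsMulCommutative Q ↔ ∀ a ∈ Q, ∀ b ∈ Q, a * b = b * a := by
  constructor
  · intro h a ha b hb
    have := congrArg Subtype.val (h.is_comm.comm (⟨a, ha⟩ : Q) ⟨b, hb⟩)
    simpa using this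
  · intro h
    exact ⟨⟨fun a b => Subtype.ext (h a.1 a.2 b.1 b.2)⟩⟩

theorem pow_norm {G : Type*} [Group G] (Q : Subgroup G) (X : G) (h : ∀ g ∈ Q, X * g * X⁻¹ ∈ Q)
    (k : ℕ) : ∀ g ∈ Q, X ^ k * g * (X ^ k)⁻¹ ∈ Q := by
  induction k with
  | zero => intro g hg; simpa using hg
  | succ k ih =>
    intro g hg
    have := h _ (ih g hg)
    have e : X ^ (k + 1) * g * (X ^ (k + 1))⁻¹ = X * (X ^ k * g * (X ^ k)⁻¹) * X⁻¹ := by
      rw [pow_succ']
      group
    rw [e]
    exact this

/-- pointwise fixer of a subspace -/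
def fixer {K : Type*} [Field K] {U : Type*} [AddCommGroup U] [Module K U] (W : Submodule K U) :
    Subgroup (U ≃ₗ[K] U) where
  carrier := {g | ∀ u ∈ W, g u = u}
  one_mem' := fun u _ => rfl
  mul_mem' := by
    intro a b ha hb u hu
    show a (b u) = u
    rw [hb u hu, ha u hu]
  inv_mem' := by
    intro a ha u hu
    show a⁻¹ u = u
    conv_lhs => rw [← ha u hu]
    exact a.symm_apply_apply u

theorem main_aux (K : Type v) [Field K] [IsAlgClosed K] (p q : ℕ) [Fact p.Prime] [Fact q.Prime]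
    (hpq : p ≠ q) [CharP K p] :
    ∀ (d : ℕ) (U : Type u) [AddCommGroup U] [Module K U] [FiniteDimensional K U],
      finrank K U = d →
    ∀ (c : ℕ) (𝒬 : Subgroup (U ≃ₗ[K] U)) [Finite 𝒬], Nat.card 𝒬 = c → IsPGroup q 𝒬 →
    ∀ (X : U ≃ₗ[K] U), (∀ g ∈ 𝒬, X * g * X⁻¹ ∈ 𝒬) → ∀ n, 1 ≤ n → X ^ p ^ n = 1 →
      (∃ g ∈ 𝒬, X ^ p ^ (n - 1) * g ≠ g * X ^ p ^ (n - 1)) →
    ∀ r, (X.toLinearMap - 1 : Module.End K U) ^ r = 0 →
      Concl p q n (¬ IsMulCommutative 𝒬) r := by
  intro d
  induction d using Nat.strong_induction_on with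
  | _ d ihd =>
  intro U _ _ _ hd c
  induction c using Nat.strong_induction_on with
  | _ c ihc =>
  intro 𝒬 _ hc hq X hnorm n hn hX hnc r hr
  have hp := (Fact.out : p.Prime)
  have hqp := (Fact.out : q.Prime)
  set Y := X ^ p ^ (n - 1) with hY
  by_cases hmin : ∃ Q1 : Subgroup (U ≃ₗ[K] U), Q1 < 𝒬 ∧ (∀ g ∈ Q1, X * g * X⁻¹ ∈ Q1) ∧
      ∃ g ∈ Q1, Y * g ≠ g * Y
  · obtain ⟨Q1, hlt, hn1, hnc1⟩ := hmin
    haveI : Finite Q1 :=
      Finite.of_injective (Subgroup.inclusion hlt.le) (Subgroup.inclusion_injective _)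
    have hcard : Nat.card Q1 < c := by
      rw [← hc]
      refine lt_of_le_of_ne (Subgroup.card_le_of_le hlt.le) ?_
      intro h
      exact hlt.ne (Subgroup.eq_of_le_of_card_ge hlt.le h.ge)
    have := ihc (Nat.card Q1) hcard Q1 rfl (hq.to_le hlt.le) X hn1 n hn hX hnc1 r hr
    refine this.mono ?_
    intro h1 h2
    apply h1
    rw [comm_iff] at h2 ⊢
    intro a ha b hb
    exact h2 a (hlt.le ha) b (hlt.le hb)
  · push Not at hmin
    have hYp : Y ^ p ^ 1 = 1 := by
      rw [hY, ← pow_mul, ← pow_add, Nat.sub_add_cancel hn, hX]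
    obtain ⟨hclo, hcen⟩ := min_cfg p q hpq 𝒬 hq X Y hnorm
      (Subgroup.pow_mem _ (Subgroup.mem_zpowers X) _) 1 hYp hnc hmin
    have hcK : (Nat.card 𝒬 : K) ≠ 0 := by
      obtain ⟨k, hk⟩ := IsPGroup.iff_card.1 hq
      rw [hk, Nat.cast_pow]
      apply pow_ne_zero
      intro h0
      rw [CharP.cast_eq_zero_iff K p q] at h0
      exact hpq ((Nat.prime_dvd_prime_iff_eq hp hqp).1 h0)
    have hne : 𝒬 ≠ ⊥ := by
      rintro rfl
      obtain ⟨g, hg, hgY⟩ := hnc
      rw [Subgroup.mem_bot] at hg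
      subst hg
      simp at hgY
    obtain ⟨U0, hU0, g0, hg0, u0, hu0, hgu0⟩ := exists_irr_nontriv 𝒬 hcK hne
    obtain ⟨j, hj, U1, hU1, hinv, hind, htr⟩ := cyc_clifford p 𝒬 X hnorm n hX U0 hU0
    have hg0U1 : ¬ ∀ u ∈ U1, g0 u = u := fun h => hgu0 (htr g0 hg0 h u0 hu0)
    rcases Nat.lt_or_ge j n with hjn | hjn
    swap
    · -- free case
      have hjn' : j = n := le_antisymm hj hjn
      subst hjn'
      obtain ⟨u, hu, hu0'⟩ := Submodule.exists_mem_ne_zero_of_ne_bot hU1.1
      have h1 := pow_ne_zero_of_indep p X j U1 hinv hind 0 u hu (by simpa using hu0')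
      left
      by_contra hlt
      push Not at hlt
      apply h1
      have h2 : (X.toLinearMap - 1 : Module.End K U) ^ (p ^ j * 0 + (p ^ j - 1)) = 0 :=
        pow_eq_zero_of_le (by omega) hr
      rw [h2]
      rfl
    · by_cases htop : U1 = ⊤
      · subst htop
        have hj0 : j = 0 := by
          by_contra hj0
          have h2 : 2 ≤ p ^ j := by
            calc 2 ≤ p := hp.two_le
              _ = p ^ 1 := (pow_one p).symm
              _ ≤ p ^ j := Nat.pow_le_pow_right hp.pos (Nat.pos_of_ne_zero hj0)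
          have hd := hind.pairwiseDisjoint (i := (⟨0, by omega⟩ : Fin (p ^ j)))
            (j := (⟨1, by omega⟩ : Fin (p ^ j))) (by simp [Fin.ext_iff])
          simp only [Function.onFun, Submodule.map_top, LinearEquiv.range] at hd
          exact hU1.1 (disjoint_self.1 hd)
        rcases core_lin p q hpq 𝒬 hq hU1 X hnorm n hn hX hnc hcen r hr with h | ⟨m, h1, h2, h3, h4⟩
        · exact Or.inl h
        · exact Or.inr ⟨n, m, hn, le_rfl, h1, h2, h3, by simpa using h4⟩
      · -- restrict to U1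
        have hdim : finrank K U1 < d := hd ▸ Submodule.finrank_lt htop
        set X1 := X ^ p ^ j with hX1
        have hX1s : X1 ∈ stab U1 := mem_stab_of_forall U1 X1 hinv
        have hQs : ∀ g ∈ 𝒬, g ∈ stab U1 := fun g hg => mem_stab_of_forall U1 g (hU1.2.1 g hg)
        set 𝒬1 : Subgroup (U1 ≃ₗ[K] U1) := (𝒬.subgroupOf (stab U1)).map (res U1) with h𝒬1
        set X1' : U1 ≃ₗ[K] U1 := res U1 ⟨X1, hX1s⟩ with hX1'
        haveI : Finite (𝒬.subgroupOf (stab U1)) :=
          Finite.of_injective (fun a => (⟨a.1.1, a.2⟩ : 𝒬)) (by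
            intro a b hab
            have := congrArg Subtype.val hab
            exact Subtype.ext (Subtype.ext this))
        haveI : Finite 𝒬1 := by
          have : ((𝒬1 : Subgroup (U1 ≃ₗ[K] U1)) : Set (U1 ≃ₗ[K] U1)).Finite := by
            rw [h𝒬1, Subgroup.coe_map]
            exact (Set.toFinite _).image _
          exact this.to_subtype
        have hq1 : IsPGroup q 𝒬1 := (hq.comap_subtype).map (res U1)
        have hmem1 : ∀ g' ∈ 𝒬1, ∃ g, ∃ hg : g ∈ 𝒬, g' = res U1 ⟨g, hQs g hg⟩ := by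
          rintro _ ⟨a, ha, rfl⟩
          exact ⟨a.1, ha, rfl⟩
        have hmem1' : ∀ g, ∀ hg : g ∈ 𝒬, res U1 ⟨g, hQs g hg⟩ ∈ 𝒬1 := by
          intro g hg
          exact ⟨⟨g, hQs g hg⟩, hg, rfl⟩
        have hnorm1 : ∀ g' ∈ 𝒬1, X1' * g' * X1'⁻¹ ∈ 𝒬1 := by
          intro g' hg'
          obtain ⟨g, hg, rfl⟩ := hmem1 g' hg'
          have h1 := pow_norm 𝒬 X hnorm (p ^ j) g hg
          have h2 := hmem1' _ h1
          have e : X1' * res U1 ⟨g, hQs g hg⟩ * X1'⁻¹ =
              res U1 ⟨X ^ p ^ j * g * (X ^ p ^ j)⁻¹, hQs _ h1⟩ := by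
            rw [hX1', ← map_inv, ← map_mul, ← map_mul]
            rfl
          rw [e]
          exact h2
        have hn1 : 1 ≤ n - j := by omega
        have hpowres : ∀ k : ℕ, X1' ^ k = res U1 ⟨X1 ^ k, Subgroup.pow_mem _ hX1s k⟩ := by
          intro k
          rw [hX1', ← map_pow]
          rfl
        have hX1p : X1' ^ p ^ (n - j) = 1 := by
          rw [hpowres]
          have : X1 ^ p ^ (n - j) = 1 := by
            rw [hX1, ← pow_mul, ← pow_add, Nat.add_sub_cancel' hj, hX]
          ext u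
          rw [res_apply]
          simp only [this]
          rfl
        have hX1Y : X1 ^ p ^ (n - j - 1) = Y := by
          rw [hX1, hY, ← pow_mul, ← pow_add]
          congr 2
          omega
        have hYs : Y ∈ stab U1 := hX1Y ▸ Subgroup.pow_mem _ hX1s _
        have hnc1 : ∃ g' ∈ 𝒬1, X1' ^ p ^ (n - j - 1) * g' ≠ g' * X1' ^ p ^ (n - j - 1) := by
          by_contra hcon
          push Not at hcon
          have hcomm : ∀ g ∈ 𝒬, ∀ u ∈ U1, Y (g u) = g (Y u) := by
            intro g hg u hu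
            have h1 := hcon _ (hmem1' g hg)
            rw [hpowres] at h1
            have h2 := congrArg (fun e : U1 ≃ₗ[K] U1 => ((e ⟨u, hu⟩ : U1) : U)) h1
            simp only [LinearEquiv.mul_apply, res_apply, hX1Y] at h2
            exact h2
          apply hg0U1
          have hle : 𝒬 ≤ fixer U1 := by
            rw [← hclo, Subgroup.closure_le]
            rintro c ⟨g, hg, rfl⟩ u hu
            show g (Y (g⁻¹ (Y⁻¹ u))) = u
            have hw' : Y⁻¹ u ∈ U1 := apply_mem_of_mem_stab (Subgroup.inv_mem _ hYs) hu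
            rw [hcomm g⁻¹ (Subgroup.inv_mem _ hg) _ hw']
            have e1 : Y (Y⁻¹ u) = u := Y.apply_symm_apply u
            rw [e1]
            exact g.apply_symm_apply u
          exact hle hg0
        have hr1 : (X1'.toLinearMap - 1 : Module.End K U1) ^ (r / p ^ j) = 0 := by
          ext u
          rw [hX1', res_sub_one_pow_apply]
          by_contra hne0
          have h1 := pow_ne_zero_of_indep p X j U1 hinv hind (r / p ^ j) u u.2 hne0
          apply h1
          have hpos : 0 < p ^ j := pow_pos hp.pos j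
          have h2 : (X.toLinearMap - 1 : Module.End K U) ^ (p ^ j * (r / p ^ j) + (p ^ j - 1)) = 0 := by
            refine pow_eq_zero_of_le ?_ hr
            have := Nat.div_add_mod r (p ^ j)
            have := Nat.mod_lt r hpos
            omega
          rw [h2]
          rfl
        have hIH := ihd (finrank K U1) hdim U1 rfl (Nat.card 𝒬1) 𝒬1 rfl hq1 X1' hnorm1 (n - j) hn1
          hX1p hnc1 (r / p ^ j) hr1
        have hpos : 0 < p ^ j := pow_pos hp.pos j
        have hdivle : p ^ j * (r / p ^ j) ≤ r := Nat.mul_div_le r (p ^ j)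
        rcases hIH with h | ⟨n₀, m, h1, h2, h3, h4, h5, h6⟩
        · left
          calc p ^ n = p ^ j * p ^ (n - j) := by rw [← pow_add, Nat.add_sub_cancel' hj]
            _ ≤ p ^ j * (r / p ^ j) := Nat.mul_le_mul_left _ h
            _ ≤ r := hdivle
        · right
          refine ⟨n₀, m, h1, by omega, h3, h4, ?_, ?_⟩
          · intro hcomm
            apply h5
            rw [comm_iff] at hcomm ⊢
            intro a ha b hb
            obtain ⟨a', ha', rfl⟩ := hmem1 a ha
            obtain ⟨b', hb', rfl⟩ := hmem1 b hb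
            rw [← map_mul, ← map_mul]
            congr 1
            exact Subtype.ext (hcomm a' ha' b' hb')
          · calc p ^ (n - n₀) * (p ^ n₀ - 1) = p ^ j * (p ^ (n - j - n₀) * (p ^ n₀ - 1)) := by
                  rw [← mul_assoc, ← pow_add]
                  congr 2
                  omega
              _ ≤ p ^ j * (r / p ^ j) := Nat.mul_le_mul_left _ h6
              _ ≤ r := hdivle

end Cfsg.Agent.Lib.Helper53.HH
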