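import Mathlib
import Cfsg.Prelude
import Cfsg.Agent.Lib.Helper73.HHAbel2
import Cfsg.Agent.Lib.Helper81.HHR5
import Cfsg.Agent.S0633

/-!
# Theorem B for a faithful action on a finite abelian `p`-group (helper53)
-/

set_option autoImplicit false
set_option linter.style.haveILetI false
set_option linter.unusedSectionVars false

namespace Cfsg.Agent.Lib.Helper53.HH

open Cfsg

section construction

variable (p : ℕ) [Fact p.Prime] (A : Type*) [CommGroup A]

/-- the subgroup of `p`-th powers -/
def powSub : Subgroup A := (powMonoidHom p : A →* A).range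

/-- `A / A^p`, written additively -/
abbrev VQ : Type _ := Additive (A ⧸ powSub p A)

theorem VQ_nsmul (v : VQ p A) : p • v = 0 := by
  obtain ⟨a, rfl⟩ := QuotientGroup.mk_surjective (Additive.toMul v)
  show Additive.ofMul ((QuotientGroup.mk a : A ⧸ powSub p A) ^ p) = 0
  rw [← QuotientGroup.mk_pow, (QuotientGroup.eq_one_iff _).2 (⟨a, rfl⟩ : a ^ p ∈ powSub p A)]
  rfl

noncomputable instance : Module (ZMod p) (VQ p A) := AddCommGroup.zmodModule (VQ_nsmul p A)

/-- the map induced by an automorphism on `A / A^p` -/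
def qmap (e : MulAut A) : (A ⧸ powSub p A) →* (A ⧸ powSub p A) :=
  QuotientGroup.map (powSub p A) (powSub p A) e.toMonoidHom (by
    rintro _ ⟨a, rfl⟩
    exact ⟨e a, by simp⟩)

theorem qmap_mk (e : MulAut A) (a : A) :
    qmap p A e (QuotientGroup.mk a) = QuotientGroup.mk (e a) := rfl

/-- the linear action of `MulAut A` on `A / A^p` -/
noncomputable def rhoEnd : MulAut A →* Module.End (ZMod p) (VQ p A) where
  toFun e := (MonoidHom.toAdditive (qmap p A e)).toZModLinearMap p
  map_one' := by
    ext v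
    obtain ⟨a, rfl⟩ := QuotientGroup.mk_surjective (Additive.toMul v)
    rfl
  map_mul' e e' := by
    ext v
    obtain ⟨a, rfl⟩ := QuotientGroup.mk_surjective (Additive.toMul v)
    rfl

theorem rhoEnd_mk (e : MulAut A) (a : A) :
    rhoEnd p A e (Additive.ofMul (QuotientGroup.mk a)) = Additive.ofMul (QuotientGroup.mk (e a)) :=
  rfl

/-- the same as a homomorphism to the general linear group -/
noncomputable def rhoGL : MulAut A →* (VQ p A ≃ₗ[ZMod p] VQ p A) :=
  (LinearMap.GeneralLinearGroup.generalLinearEquiv (ZMod p) (VQ p A)).toMonoidHom.comp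
    (rhoEnd p A).toHomUnits

theorem rhoGL_toLinearMap (e : MulAut A) : (rhoGL p A e).toLinearMap = rhoEnd p A e := by
  ext v
  rfl

end construction

theorem thmB_abelian {H : Type*} [Group H] [Finite H] {p : ℕ} [Fact p.Prime]
    (hsol : IsPSolvable p H) (hOp : pCore p H = ⊥)
    {A : Type*} [CommGroup A] [Finite A] (hA : IsPGroup p A) (φ : H →* MulAut A)
    (hφ : Function.Injective φ) (x : H) (n : ℕ) (hn1 : 1 ≤ n) (hn : orderOf x = p ^ n) :
    (∃ v : A, ¬ ∃ w : A, ∏ i ∈ Finset.range (p ^ n), ((φ x) ^ i) v = w ^ p) ∨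
    ∃ n₀ q m : ℕ, 1 ≤ n₀ ∧ n₀ ≤ n ∧ q.Prime ∧ 1 ≤ m ∧ p ^ n₀ - 1 = q ^ m ∧
      ∀ Q : Sylow q H, ¬ IsMulCommutative Q := by
  have hp := (Fact.out : p.Prime)
  set Θ : H →* (VQ p A ≃ₗ[ZMod p] VQ p A) := (rhoGL p A).comp φ with hΘdef
  have hΘ : Function.Injective Θ := by
    rw [← MonoidHom.ker_eq_bot_iff, eq_bot_iff, ← hOp]
    apply Cfsg.Agent.Lib.Lead.le_pCore inferInstance
    rintro ⟨c, hc⟩
    have h1 : φ c ∈ Cfsg.Agent.Lib.Helper64.frattiniKer A := by
      intro a
      have h2 : rhoEnd p A (φ c) (Additive.ofMul (QuotientGroup.mk a)) =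
          Additive.ofMul (QuotientGroup.mk a) := by
        have h3 := congrArg (fun e : VQ p A ≃ₗ[ZMod p] VQ p A =>
          e (Additive.ofMul (QuotientGroup.mk a))) (MonoidHom.mem_ker.1 hc)
        exact h3
      rw [rhoEnd_mk] at h2
      have h4 : (QuotientGroup.mk (φ c a) : A ⧸ powSub p A) = QuotientGroup.mk a :=
        Additive.ofMul.injective h2
      have h5 := (QuotientGroup.eq_iff_div_mem (N := powSub p A)).1 h4
      rw [div_eq_mul_inv] at h5
      obtain ⟨b, hb⟩ := h5
      rw [← hb]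
      exact Cfsg.Agent.Lib.Helper2.pow_p_mem_frattini hA b
    obtain ⟨k, hk⟩ := Cfsg.Agent.Lib.Helper64.isPGroup_frattiniKer hA ⟨_, h1⟩
    refine ⟨k, ?_⟩
    have hk' : (φ c) ^ p ^ k = 1 := by
      have := congrArg Subtype.val hk
      simpa using this
    rw [← map_pow] at hk'
    have := hφ (hk'.trans (map_one φ).symm)
    exact Subtype.ext (by simpa using this)
  have hx1 : x ≠ 1 := by
    rintro rfl
    rw [orderOf_one] at hn
    have : 1 < p ^ n := Nat.one_lt_pow (by omega) hp.one_lt
    omega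
  haveI hAnt : Nontrivial A := by
    by_contra h
    rw [not_nontrivial_iff_subsingleton] at h
    apply hx1
    apply hφ
    rw [map_one]
    ext a
    exact Subsingleton.elim _ _
  obtain ⟨a0, ha0⟩ : ∃ a0 : A, a0 ∉ powSub p A := by
    by_contra hcon
    push Not at hcon
    have hsurj : Function.Surjective (powMonoidHom p : A →* A) := fun a => hcon a
    have hinj := Finite.injective_iff_surjective.2 hsurj
    obtain ⟨k, hk⟩ := IsPGroup.iff_card.1 hA
    have hk0 : k ≠ 0 := by
      rintro rfl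
      rw [pow_zero] at hk
      have := Finite.one_lt_card (α := A)
      omega
    have hdvd : p ∣ Nat.card A := hk ▸ dvd_pow_self p hk0
    obtain ⟨g, hg⟩ := exists_prime_orderOf_dvd_card' p hdvd
    have h1 : (powMonoidHom p : A →* A) g = (powMonoidHom p : A →* A) 1 := by
      simp only [powMonoidHom_apply, one_pow]
      rw [← hg]
      exact pow_orderOf_eq_one g
    have := hinj h1
    rw [this, orderOf_one] at hg
    exact hp.one_lt.ne hg
  haveI : Nontrivial (VQ p A) := by
    refine ⟨⟨Additive.ofMul (QuotientGroup.mk a0), 0, ?_⟩⟩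
    intro h
    apply ha0
    exact (QuotientGroup.eq_one_iff a0).1 (Additive.ofMul.injective h)
  haveI : Finite (VQ p A) := inferInstanceAs (Finite (A ⧸ powSub p A))
  haveI : FiniteDimensional (ZMod p) (VQ p A) := Module.Finite.of_finite
  set e : H ≃* Θ.range := MonoidHom.ofInjective hΘ with he
  haveI : Finite Θ.range := Finite.of_equiv H e.toEquiv
  have hsol' : IsPSolvable p Θ.range :=
    Cfsg.Agent.Lib.Helper76.isPSolvable_of_surjective e.toMonoidHom e.surjective hsol
  have hOp' : pCore p Θ.range = ⊥ := by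
    rw [← Cfsg.Agent.Lib.Lead.pCore_map_equiv e, hOp, Subgroup.map_bot]
  set T : Module.End (ZMod p) (VQ p A) := (Θ x).toLinearMap with hT
  have hTrho : ∀ i : ℕ, T ^ i = rhoEnd p A ((φ x) ^ i) := by
    intro i
    rw [map_pow, hT]
    congr 1
  haveI : CharP (Module.End (ZMod p) (VQ p A)) p :=
    charP_of_injective_algebraMap (algebraMap (ZMod p) (Module.End (ZMod p) (VQ p A))).injective p
  have hTP : (T - 1) ^ p ^ n = 0 := by
    rw [sub_pow_char_pow_of_commute p n (Commute.one_right _), one_pow, hTrho, ← map_pow, ← hn,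
      pow_orderOf_eq_one, map_one, map_one]
    exact sub_self _
  have hX1 : (Polynomial.X - 1 : Polynomial (ZMod p)) = Polynomial.X - Polynomial.C 1 := by simp
  have hdeg : ∀ k : ℕ, ((Polynomial.X - 1 : Polynomial (ZMod p)) ^ k).natDegree = k := by
    intro k
    rw [hX1, Polynomial.natDegree_pow, Polynomial.natDegree_X_sub_C, mul_one]
  have hne0 : ∀ k : ℕ, ((Polynomial.X - 1 : Polynomial (ZMod p)) ^ k) ≠ 0 := by
    intro k
    rw [hX1]
    exact pow_ne_zero k (Polynomial.X_sub_C_ne_zero (1 : ZMod p))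
  have hdvd : minpoly (ZMod p) T ∣ (Polynomial.X - 1) ^ p ^ n := by
    apply minpoly.dvd
    simpa using hTP
  have hint : IsIntegral (ZMod p) T := Algebra.IsIntegral.isIntegral T
  obtain ⟨r, -, hassoc⟩ := (dvd_prime_pow (hX1 ▸ Polynomial.prime_X_sub_C (1 : ZMod p)) _).1 hdvd
  have hr : minpoly (ZMod p) T = (Polynomial.X - 1) ^ r :=
    Polynomial.eq_of_monic_of_associated (minpoly.monic hint)
      (by rw [hX1]; exact (Polynomial.monic_X_sub_C 1).pow r) hassoc
  rcases Cfsg.Agent.S0633.result Θ.range hsol' hOp' (Θ x) ⟨x, rfl⟩ n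
    (by rw [orderOf_injective Θ hΘ, hn]) r hr with hrn | ⟨n₀, q, m, h1, h2, hq, h3, h4, h5, -⟩
  · left
    by_contra hcon
    push Not at hcon
    have hsum : ∑ i ∈ Finset.range (p ^ n), T ^ i = 0 := by
      ext v
      obtain ⟨a, rfl⟩ := QuotientGroup.mk_surjective (Additive.toMul v)
      obtain ⟨w, hw⟩ := hcon a
      have h1 : (∑ i ∈ Finset.range (p ^ n), T ^ i)
          (Additive.ofMul (QuotientGroup.mk a : A ⧸ powSub p A)) =
          Additive.ofMul (QuotientGroup.mk (∏ i ∈ Finset.range (p ^ n), ((φ x) ^ i) a)) := by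
        rw [LinearMap.sum_apply]
        have : (QuotientGroup.mk (∏ i ∈ Finset.range (p ^ n), ((φ x) ^ i) a) : A ⧸ powSub p A) =
            ∏ i ∈ Finset.range (p ^ n), (QuotientGroup.mk (((φ x) ^ i) a) : A ⧸ powSub p A) :=
          map_prod (QuotientGroup.mk' (powSub p A)) _ _
        rw [this, ofMul_prod]
        refine Finset.sum_congr rfl fun i _ => ?_
        rw [hTrho, rhoEnd_mk]
      refine h1.trans ?_
      rw [hw, (QuotientGroup.eq_one_iff _).2 (⟨w, rfl⟩ : w ^ p ∈ powSub p A)]
      rfl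
    have hid := congrArg (Polynomial.aeval T)
      (Cfsg.Agent.Lib.Helper81.HH.poly_identity (K := ZMod p) p n 0)
    simp only [map_pow, map_sub, Polynomial.aeval_X, map_one, map_mul, map_sum, mul_zero, zero_add,
      pow_zero, mul_one] at hid
    rw [hsum] at hid
    have h6 : minpoly (ZMod p) T ∣ (Polynomial.X - 1) ^ (p ^ n - 1) := by
      apply minpoly.dvd
      simpa using hid
    rw [hr] at h6
    have h7 := Polynomial.natDegree_le_of_dvd h6 (hne0 _)
    rw [hdeg, hdeg, hrn] at h7
    have := pow_pos hp.pos n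
    omega
  · right
    refine ⟨n₀, q, m, h1, h2, hq, h3, h4, ?_⟩
    haveI : Fact q.Prime := ⟨hq⟩
    intro Q hQ
    have hf : Function.Surjective e.toMonoidHom := e.surjective
    apply h5 (Q.mapSurjective hf)
    have hQ' := (comm_iff (Q : Subgroup H)).1 hQ
    have : IsMulCommutative ((Q.mapSurjective hf : Sylow q Θ.range) : Subgroup Θ.range) := by
      rw [comm_iff, Sylow.coe_mapSurjective]
      rintro _ ⟨a, ha, rfl⟩ _ ⟨b, hb, rfl⟩
      rw [← map_mul, ← map_mul, hQ' a ha b hb]
    exact this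

end Cfsg.Agent.Lib.Helper53.HH
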