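import Mathlib
import Cfsg.Prelude
import Cfsg.Agent.Lib.Helper73.HHAbel2
import Cfsg.Agent.Lib.Helper33.Sections
import Cfsg.Agent.Lib.Helper53.HH.Defs2
import Cfsg.Agent.Lib.Helper95.HHW2

/-!
# The wreath section: reduction to the elementary abelian case (helper53)
-/

set_option autoImplicit false

namespace Cfsg.Agent.Lib.Helper53.HH

open Cfsg Cfsg.Agent.Lib.Helper73.HHAbel Cfsg.Agent.Lib.Helper33
open Cfsg.Agent.Lib.Helper95.HH (wreath_elem)

theorem involves_of_hom_surj {X Y S : Type*} [Group X] [Group Y] [Group S] (f : X →* Y)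
    (hf : Function.Surjective f) (h : Involves S Y) : Involves S X :=
  involves_trans h (involves_of_surjective ⊤ (f.comp (Subgroup.topEquiv (G := X)).toMonoidHom)
    (hf.comp (Subgroup.topEquiv (G := X)).surjective))

theorem wreath_section {G : Type*} [Group G] [Finite G] {p : ℕ} [Fact p.Prime] (R : Subgroup G)
    [R.Normal] (hR : IsPGroup p R) (x : G) (hxR : x ∉ R) (hxp : x ^ p ∈ R) (r0 : R)
    (hnorm : ¬ ∃ w : Abelianization R,
      ∏ i ∈ Finset.range p, ((Psi R x) ^ i) (Abelianization.of r0) = w ^ p) :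
    ∃ (W : Type) (_ : Group W) (_ : Finite W), IsWr p W ∧ Involves W ↥(R ⊔ Subgroup.zpowers x) := by
  set T : Subgroup R :=
    (powMonoidHom p : Abelianization R →* Abelianization R).range.comap Abelianization.of with hT
  have memT : ∀ r : R, r ∈ T ↔ ∃ w : Abelianization R, Abelianization.of r = w ^ p := by
    intro r
    rw [hT, Subgroup.mem_comap, MonoidHom.mem_range]
    constructor
    · rintro ⟨w, hw⟩
      exact ⟨w, hw.symm⟩
    · rintro ⟨w, hw⟩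
      exact ⟨w, hw.symm⟩
  set Φ : Subgroup G := T.map R.subtype with hΦ
  have memΦ : ∀ g : G, g ∈ Φ ↔ ∃ hg : g ∈ R, (⟨g, hg⟩ : R) ∈ T := by
    intro g
    constructor
    · rintro ⟨r, hr, rfl⟩
      exact ⟨r.2, hr⟩
    · rintro ⟨hg, h⟩
      exact ⟨⟨g, hg⟩, h, rfl⟩
  have hΦR : Φ ≤ R := fun g hg => ((memΦ g).1 hg).1
  haveI hΦn : Φ.Normal := by
    constructor
    intro n hn g
    obtain ⟨hnR, hnT⟩ := (memΦ n).1 hn
    obtain ⟨w, hw⟩ := (memT _).1 hnT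
    have h1 : (MulAut.conjNormal g (⟨n, hnR⟩ : R) : R) ∈ T := by
      rw [memT]
      refine ⟨Psi R g w, ?_⟩
      rw [← Psi_of, hw, map_pow]
    have h2 : ((MulAut.conjNormal g (⟨n, hnR⟩ : R) : R) : G) = g * n * g⁻¹ := by
      simp [MulAut.conjNormal_apply]
    rw [← h2]
    exact ⟨_, h1, rfl⟩
  set π := QuotientGroup.mk' Φ with hπ
  have hπs : Function.Surjective π := QuotientGroup.mk'_surjective Φ
  set E : Subgroup (G ⧸ Φ) := R.map π with hE
  haveI : E.Normal := Subgroup.Normal.map inferInstance π hπs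
  have hπ1 : ∀ g : G, π g = 1 ↔ g ∈ Φ := fun g => QuotientGroup.eq_one_iff g
  have hEc : ∀ a ∈ E, ∀ b ∈ E, a * b = b * a := by
    rintro _ ⟨a, ha, rfl⟩ _ ⟨b, hb, rfl⟩
    rw [← map_mul, ← map_mul, ← mul_inv_eq_one, ← map_inv, ← map_mul, hπ1, memΦ]
    refine ⟨R.mul_mem (R.mul_mem ha hb) (R.inv_mem (R.mul_mem hb ha)), ?_⟩
    rw [memT]
    refine ⟨1, ?_⟩
    have : (⟨a * b * (b * a)⁻¹, R.mul_mem (R.mul_mem ha hb) (R.inv_mem (R.mul_mem hb ha))⟩ : R) =
        (⟨a, ha⟩ : R) * ⟨b, hb⟩ * ((⟨b, hb⟩ : R) * ⟨a, ha⟩)⁻¹ := rfl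
    rw [this, map_mul, map_mul, map_inv, map_mul, one_pow, mul_comm (Abelianization.of _),
      mul_inv_cancel]
  have hEp : ∀ a ∈ E, a ^ p = 1 := by
    rintro _ ⟨a, ha, rfl⟩
    rw [← map_pow, hπ1, memΦ]
    refine ⟨R.pow_mem ha p, ?_⟩
    rw [memT]
    exact ⟨Abelianization.of ⟨a, ha⟩, by rw [← map_pow]; rfl⟩
  have hxE : π x ∉ E := by
    rintro ⟨r, hr, hrx⟩
    apply hxR
    have h1 : π (r⁻¹ * x) = 1 := by rw [map_mul, map_inv, hrx, inv_mul_cancel]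
    have h2 := hΦR ((hπ1 _).1 h1)
    have := R.mul_mem hr h2
    rwa [mul_inv_cancel_left] at this
  have hxpE : π x ^ p ∈ E := ⟨x ^ p, hxp, map_pow _ _ _⟩
  have hvE : π (r0 : G) ∈ E := ⟨r0, r0.2, rfl⟩
  have hne : (π (r0 : G) * π x) ^ p ≠ π x ^ p := by
    intro h
    obtain ⟨s, hs1, hs2⟩ := mul_pow_formula R r0 x p
    rw [← map_mul, ← map_pow, hs1, map_mul, map_pow, mul_eq_right, hπ1, memΦ] at h
    obtain ⟨_, h2⟩ := h
    obtain ⟨w, hw⟩ := (memT _).1 h2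
    apply hnorm
    refine ⟨w, ?_⟩
    rw [← hw]
    exact hs2.symm
  obtain ⟨W, i1, i2, hW, hinv⟩ := wreath_elem E hEc hEp (π x) hxE hxpE (π (r0 : G)) hvE hne
  refine ⟨W, i1, i2, hW, ?_⟩
  have hmap : (R ⊔ Subgroup.zpowers x).map π = E ⊔ Subgroup.zpowers (π x) := by
    rw [Subgroup.map_sup, MonoidHom.map_zpowers]
  have e := hmap ▸ hinv
  exact involves_of_hom_surj (π.subgroupMap (R ⊔ Subgroup.zpowers x))
    (π.subgroupMap_surjective _) e

end Cfsg.Agent.Lib.Helper53.HH
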